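import Mathlib
import Cfsg.Agent.Helper17.J1.Conc
import Cfsg.Agent.Helper17.J1.Schur

/-!
# The Schur multiplier of `J₁` is trivial (helper17)

Transfer into the preimages of cyclic subgroups of orders 3, 5, 7, 11, 19 and of an elementary
abelian subgroup of order 8 normalised by an element of order 7.
-/

set_option autoImplicit false

namespace Cfsg.Agent.Helper17.J1

open Cfsg Cfsg.Spor Cfsg.Agent.Helper17

/-- an element of order 7 normalising a Sylow 2-subgroup -/
def wg7 : List ℕ := [0, 0, 0, 3, 3, 1, 3, 1, 3, 1]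

/-- the elements of the Sylow 2-subgroup generated by three conjugates of `a` -/
def q2w (s : Bool × Bool × Bool) : List ℕ :=
  bw s.1 wa ++ bw s.2.1 (conjw wg7 wa) ++ bw s.2.2 (conjw (wg7 ++ wg7) wa)

set_option maxHeartbeats 0 in
theorem q2mul : ∀ s t : Bool × Bool × Bool,
    chkEq gT (q2w s ++ q2w t) (q2w (bxor3 s t)) = true := by
  decide +kernel

set_option maxHeartbeats 0 in
theorem q2ne : ∀ s : Bool × Bool × Bool, s ≠ (false, false, false) →
    chkNe gT (q2w s) [] = true := by
  decide +kernel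

set_option maxHeartbeats 0 in
theorem q2rel : chkEq gT (wa ++ conjw wg7 wa) (conjw (wg7 ++ wg7 ++ wg7) wa) = true := by
  decide +kernel

set_option maxHeartbeats 0 in
theorem pow_words : chkEq gT (poww wb 3) [] = true ∧ chkEq gT (poww [2] 5) [] = true ∧
    chkEq gT (poww (wa ++ wb) 7) [] = true ∧ chkEq gT (poww wv 11) [] = true ∧
    chkEq gT (poww w19 19) [] = true := by
  decide +kernel

/-- a cyclic subgroup of prime order `p` works for the prime `p` -/
theorem cyc_case {Γ : Type*} [Group Γ] (σ : Γ →* Cfsg.Spor.J1) (hs : Function.Surjective σ)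
    (hker : σ.ker ≤ Subgroup.center Γ) (w : List ℕ) (p m : ℕ) (hp : p.Prime)
    (hm : p * m = 175560) (hpm : ¬ p ∣ m)
    (h1 : chkEq gT (poww w p) [] = true) (h2 : ev jx jy w ≠ ev jx jy []) :
    ∃ P : Subgroup Cfsg.Spor.J1, ¬ p ∣ P.index ∧
      ∀ x y, σ x ∈ P → σ y ∈ P → x * y = y * x := by
  have e1 : ev jx jy w ^ p = 1 := by
    have := ev_eq h1
    rwa [ev_poww, ev_nil] at this
  have e2 : ev jx jy w ≠ 1 := by rwa [ev_nil] at h2
  refine ⟨Subgroup.zpowers (ev jx jy w), ?_, fun x y hx hy => comm_of_zpowers σ hs hker _ hx hy⟩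
  have hc := card_zpowers_prime hp e1 e2
  have hi := Subgroup.card_mul_index (Subgroup.zpowers (ev jx jy w))
  rw [hc, J1_simple_card.2, pow_one, ← hm] at hi
  have : (Subgroup.zpowers (ev jx jy w)).index = m := Nat.eq_of_mul_eq_mul_left hp.pos hi
  rwa [this]

theorem q2_mem (a b c : Cfsg.Spor.J1) (s : Bool × Bool × Bool)
    (h : ev jx jy wa = a) (hb : ev jx jy (conjw wg7 wa) = b)
    (hc : ev jx jy (conjw (wg7 ++ wg7) wa) = c) :
    ev jx jy (q2w s) ∈ Subgroup.closure ({a, b, c} : Set Cfsg.Spor.J1) := by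
  have ha' : a ∈ Subgroup.closure ({a, b, c} : Set Cfsg.Spor.J1) :=
    Subgroup.subset_closure (by simp)
  have hb' : b ∈ Subgroup.closure ({a, b, c} : Set Cfsg.Spor.J1) :=
    Subgroup.subset_closure (by simp)
  have hc' : c ∈ Subgroup.closure ({a, b, c} : Set Cfsg.Spor.J1) :=
    Subgroup.subset_closure (by simp)
  have key : ∀ (t : Bool) (w : List ℕ) (z : Cfsg.Spor.J1), ev jx jy w = z →
      z ∈ Subgroup.closure ({a, b, c} : Set Cfsg.Spor.J1) →
      ev jx jy (bw t w) ∈ Subgroup.closure ({a, b, c} : Set Cfsg.Spor.J1) := by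
    intro t w z hz hmem
    cases t
    · exact one_mem _
    · show ev jx jy w ∈ _
      rw [hz]; exact hmem
  rw [q2w, ev_append, ev_append]
  exact mul_mem (mul_mem (key _ _ _ h ha') (key _ _ _ hb hb')) (key _ _ _ hc hc')

/-- the prime 2 -/
theorem two_case {Γ : Type*} [Group Γ] (σ : Γ →* Cfsg.Spor.J1) (hs : Function.Surjective σ)
    (hker : σ.ker ≤ Subgroup.center Γ) :
    ∃ P : Subgroup Cfsg.Spor.J1, ¬ 2 ∣ P.index ∧
      ∀ x y, σ x ∈ P → σ y ∈ P → x * y = y * x := by
  obtain ⟨P, hPc, hPe⟩ := exists_p2 (fun s => ev jx jy (q2w s)) rfl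
    (fun s t => by rw [← ev_append]; exact ev_eq (q2mul s t))
    (fun s hs => by have := ev_ne (q2ne s hs); rwa [ev_nil] at this)
  refine ⟨P, ?_, ?_⟩
  · have hi := Subgroup.card_mul_index P
    rw [hPc, J1_simple_card.2] at hi
    have : P.index = 21945 := by omega
    rw [this]; decide
  · obtain ⟨A, hA⟩ := hs (ev jx jy wa)
    obtain ⟨g', hg⟩ := hs (ev jx jy wg7)
    set a := ev jx jy wa with ha
    set g := ev jx jy wg7 with hg7
    have eb : ev jx jy (conjw wg7 wa) = g * a * g⁻¹ := by rw [ev_conjw]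
    have ec : ev jx jy (conjw (wg7 ++ wg7) wa) = g * g * a * (g * g)⁻¹ := by
      rw [ev_conjw, ev_append]
    have ed : ev jx jy (conjw (wg7 ++ wg7 ++ wg7) wa) = g * g * g * a * (g * g * g)⁻¹ := by
      rw [ev_conjw, ev_append, ev_append]
    have h01 : a * (g * a * g⁻¹) = g * a * g⁻¹ * a := by
      have k1 := ev_eq (q2mul (true, false, false) (false, true, false))
      have k2 := ev_eq (q2mul (false, true, false) (true, false, false))
      have k3 : ev jx jy (q2w (true, false, false)) = a := by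
        simp [q2w, bw, ha]
      have k4 : ev jx jy (q2w (false, true, false)) = g * a * g⁻¹ := by
        simp [q2w, bw, eb]
      rw [ev_append, k3, k4] at k1 k2
      rw [k1, k2]
      rfl
    have h02 : a * (g * g * a * (g * g)⁻¹) = g * g * a * (g * g)⁻¹ * a := by
      have k1 := ev_eq (q2mul (true, false, false) (false, false, true))
      have k2 := ev_eq (q2mul (false, false, true) (true, false, false))
      have k3 : ev jx jy (q2w (true, false, false)) = a := by
        simp [q2w, bw, ha]
      have k4 : ev jx jy (q2w (false, false, true)) = g * g * a * (g * g)⁻¹ := by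
        simp only [q2w, bw, ev_append, ev_nil, one_mul, ec]
      rw [ev_append, k3, k4] at k1 k2
      rw [k1, k2]
      rfl
    have h3 : a * (g * a * g⁻¹) = g * g * g * a * (g * g * g)⁻¹ := by
      have k := ev_eq q2rel
      rwa [ev_append, eb, ed] at k
    have hcomm := lifts_commute σ hker A g' a g hA hg h01 h02 h3
    have himg : σ '' ({A, g' * A * g'⁻¹, g' * g' * A * (g' * g')⁻¹} : Set Γ) =
        ({a, g * a * g⁻¹, g * g * a * (g * g)⁻¹} : Set Cfsg.Spor.J1) := by
      simp only [Set.image_insert_eq, Set.image_singleton, map_mul, map_inv, hA, hg]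
    have hle : ∀ z ∈ P, z ∈ Subgroup.closure
        (σ '' ({A, g' * A * g'⁻¹, g' * g' * A * (g' * g')⁻¹} : Set Γ)) := by
      intro z hz
      rw [himg]
      by_cases hz1 : z = 1
      · rw [hz1]; exact one_mem _
      · obtain ⟨s, _, rfl⟩ := hPe z hz hz1
        exact q2_mem a _ _ s rfl eb ec
    intro x y hx hy
    exact comm_of_closure σ hker _ hcomm (hle _ hx) (hle _ hy)

/-- the Schur multiplier of `J₁` is trivial -/
theorem schur_J1 : Cfsg.HasCyclicSchurMultiplier Cfsg.Spor.J1 1 := by
  have hfin : Finite Cfsg.Spor.J1 := inferInstance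
  constructor
  · refine ⟨Cfsg.Spor.J1, inferInstance, hfin, MonoidHom.id _, ⟨Function.surjective_id, ?_, ?_⟩, ?_⟩
    · rw [MonoidHom.ker_id]; exact bot_le
    · rw [MonoidHom.ker_id]; exact bot_le
    · have hu : Unique (MonoidHom.id Cfsg.Spor.J1).ker := by
        rw [MonoidHom.ker_id]; infer_instance
      have hu' : Unique (Multiplicative (ZMod 1)) :=
        { default := 1
          uniq := fun a => by
            apply Multiplicative.toAdd.injective
            exact Subsingleton.elim (α := ZMod 1) _ _ }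
      exact ⟨MulEquiv.ofUnique⟩
  · intro Γ _ _ σ hσ
    have hk : σ.ker = ⊥ := by
      apply ker_eq_bot_of_comm σ hσ
      intro p hp hpd
      rw [J1_simple_card.2] at hpd
      obtain ⟨hs, hc, _⟩ := hσ
      obtain ⟨w3, w5, w7, w11, w19'⟩ := pow_words
      have hne := data.ne
      rcases prime_dvd_cases hp hpd with rfl | rfl | rfl | rfl | rfl | rfl
      · exact two_case σ hs hc
      · exact cyc_case σ hs hc wb 3 58520 hp (by norm_num) (by norm_num) w3 (hne _ (by simp))
      · exact cyc_case σ hs hc [2] 5 35112 hp (by norm_num) (by norm_num) w5 (hne _ (by simp))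
      · exact cyc_case σ hs hc (wa ++ wb) 7 25080 hp (by norm_num) (by norm_num) w7
          (hne _ (by simp))
      · exact cyc_case σ hs hc wv 11 15960 hp (by norm_num) (by norm_num) w11 (hne _ (by simp))
      · exact cyc_case σ hs hc w19 19 9240 hp (by norm_num) (by norm_num) w19' (hne _ (by simp))
    refine ⟨1, ?_⟩
    rintro ⟨z, hz⟩
    refine ⟨1, ?_⟩
    apply Subtype.ext
    have hz' : z = 1 := by rwa [hk, Subgroup.mem_bot] at hz
    show (1 : Γ) = z
    exact hz'.symm

end Cfsg.Agent.Helper17.J1
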