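import Mathlib
import Cfsg.Agent.Helper17.J1.Schur2

/-!
# Stem extensions of groups with a dihedral Sylow 2-subgroup of order 8 (helper17)

If `G` has order `8 m` with `m` odd, a dihedral subgroup of order 8 and cyclic Sylow subgroups for
the odd primes (all of prime order here), then the kernel of a finite stem extension of `G` has
order at most 2.
-/

set_option autoImplicit false

universe u

namespace Cfsg.Agent.Helper17.J1

section Schur3

variable {Γ : Type*} {G : Type*} [Group Γ] [Group G]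

/-- the relations of a lift of the dihedral group of order 8 -/
theorem d8_aux (X Y w : Γ) (hw : w = Y * X * Y⁻¹ * X⁻¹)
    (hk : ∀ t, t * (w * (X * X)) = (w * (X * X)) * t)
    (hX4 : ∀ t, t * (X * X * (X * X)) = (X * X * (X * X)) * t) :
    X * w = w * X ∧ Y * w * Y⁻¹ = w⁻¹ ∧ w * w * (w * w) = 1 ∧ Y⁻¹ * w * Y = w⁻¹ := by
  obtain ⟨k, hk_def⟩ : ∃ k, k = w * (X * X) := ⟨_, rfl⟩
  rw [← hk_def] at hk
  have e0 : w = k * (X * X)⁻¹ := by rw [hk_def]; group
  have c1 : X * w = w * X := by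
    calc X * w = (X * k) * (X * X)⁻¹ := by rw [e0]; group
      _ = k * X * (X * X)⁻¹ := by rw [hk X]
      _ = k * (X * X)⁻¹ * X := by group
      _ = w * X := by rw [← e0]
  have d1 : Y * X * Y⁻¹ = w * X := by rw [hw]; group
  have d2 : (w * X) * (w * X) = w * w * (X * X) := by
    calc (w * X) * (w * X) = w * (X * w) * X := by group
      _ = w * (w * X) * X := by rw [c1]
      _ = w * w * (X * X) := by group
  have d3 : Y * (X * X) * Y⁻¹ = w * w * (X * X) := by
    calc Y * (X * X) * Y⁻¹ = (Y * X * Y⁻¹) * (Y * X * Y⁻¹) := by group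
      _ = (w * X) * (w * X) := by rw [d1]
      _ = w * w * (X * X) := d2
  have d4 : (X * X) * (w * w) = (w * w) * (X * X) := by
    calc (X * X) * (w * w) = X * (X * w) * w := by group
      _ = X * (w * X) * w := by rw [c1]
      _ = (X * w) * (X * w) := by group
      _ = (w * X) * (w * X) := by rw [c1]
      _ = w * w * (X * X) := d2
  have e1 : Y * w * Y⁻¹ = w⁻¹ := by
    calc Y * w * Y⁻¹ = (Y * k) * (X * X)⁻¹ * Y⁻¹ := by rw [e0]; group
      _ = k * Y * (X * X)⁻¹ * Y⁻¹ := by rw [hk Y]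
      _ = k * (Y * (X * X) * Y⁻¹)⁻¹ := by group
      _ = k * (w * w * (X * X))⁻¹ := by rw [d3]
      _ = (k * (X * X)⁻¹) * (w * w)⁻¹ := by group
      _ = w * (w * w)⁻¹ := by rw [← e0]
      _ = w⁻¹ := by group
  have f1 : w * w * (w * w) = 1 := by
    have a1 : Y * (X * X * (X * X)) * Y⁻¹ = X * X * (X * X) := by
      rw [hX4 Y, mul_inv_cancel_right]
    have a2 : Y * (X * X * (X * X)) * Y⁻¹ = (w * w * (w * w)) * (X * X * (X * X)) := by
      calc Y * (X * X * (X * X)) * Y⁻¹ = (Y * (X * X) * Y⁻¹) * (Y * (X * X) * Y⁻¹) := by group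
        _ = (w * w * (X * X)) * (w * w * (X * X)) := by rw [d3]
        _ = w * w * ((X * X) * (w * w)) * (X * X) := by group
        _ = w * w * ((w * w) * (X * X)) * (X * X) := by rw [d4]
        _ = (w * w * (w * w)) * (X * X * (X * X)) := by group
    have a3 : (w * w * (w * w)) * (X * X * (X * X)) = 1 * (X * X * (X * X)) := by
      rw [one_mul, ← a2, a1]
    exact mul_right_cancel a3
  refine ⟨c1, e1, f1, ?_⟩
  have b1 : Y * w⁻¹ * Y⁻¹ = w := by
    calc Y * w⁻¹ * Y⁻¹ = (Y * w * Y⁻¹)⁻¹ := by group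
      _ = w := by rw [e1, inv_inv]
  calc Y⁻¹ * w * Y = Y⁻¹ * (Y * w⁻¹ * Y⁻¹) * Y := by rw [b1]
    _ = w⁻¹ := by group

/-- dihedral Sylow 2-subgroup of order 8: the powers of the elements of the kernel by the odd
index lie in a fixed subgroup of order at most 2 -/
theorem d8_pow_index [Finite Γ] (σ : Γ →* G) (hσ : Cfsg.IsStemExtension σ) (x y : G)
    (hx4 : x ^ 4 = 1) (hx2 : x ^ 2 ≠ 1) (hxy : y * x * y⁻¹ = x⁻¹) :
    ∃ c : Γ, c * c = 1 ∧ ∀ z ∈ σ.ker,
      z ^ (Subgroup.zpowers y ⊔ Subgroup.zpowers x).index = 1 ∨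
      z ^ (Subgroup.zpowers y ⊔ Subgroup.zpowers x).index = c := by
  obtain ⟨hs, hc, hd⟩ := hσ
  have cen : ∀ v : Γ, σ v = 1 → ∀ t, t * v = v * t := fun v hv t =>
    Subgroup.mem_center_iff.1 (hc (MonoidHom.mem_ker.2 hv)) t
  obtain ⟨X, hX⟩ := hs x
  obtain ⟨Y, hY⟩ := hs y
  obtain ⟨w, hw⟩ : ∃ w, w = Y * X * Y⁻¹ * X⁻¹ := ⟨_, rfl⟩
  have sw : σ w = x⁻¹ * x⁻¹ := by
    rw [hw, map_mul, map_mul, map_mul, map_inv, map_inv, hX, hY, hxy]
  have x4' : x * x * (x * x) = 1 := by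
    rw [← hx4]; simp [pow_succ, mul_assoc]
  have hk := cen (w * (X * X)) (by rw [map_mul, map_mul, sw, hX]; group)
  have hX4 := cen (X * X * (X * X)) (by rw [map_mul, map_mul, hX, x4'])
  obtain ⟨c1, e1, f1, g1⟩ := d8_aux X Y w hw hk hX4
  have hN : ∀ s ∈ ({X, Y} ∪ (σ.ker : Set Γ) : Set Γ),
      s ∈ Subgroup.normalizer ((Subgroup.zpowers w : Subgroup Γ) : Set Γ) := by
    rintro s ((rfl | rfl) | hs')
    · apply mem_normalizer_zpowers
      · rw [c1, mul_inv_cancel_right]; exact Subgroup.mem_zpowers w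
      · rw [mul_assoc, ← c1, inv_mul_cancel_left]; exact Subgroup.mem_zpowers w
    · apply mem_normalizer_zpowers
      · rw [e1]; exact Subgroup.inv_mem _ (Subgroup.mem_zpowers w)
      · rw [g1]; exact Subgroup.inv_mem _ (Subgroup.mem_zpowers w)
    · have cs := cen s (MonoidHom.mem_ker.1 hs')
      apply mem_normalizer_zpowers
      · rw [← cs w, mul_inv_cancel_right]; exact Subgroup.mem_zpowers w
      · rw [mul_assoc, cs w, inv_mul_cancel_left]; exact Subgroup.mem_zpowers w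
  have hC : ∀ s ∈ ({X, Y} ∪ (σ.ker : Set Γ) : Set Γ), ∀ t ∈ ({X, Y} ∪ (σ.ker : Set Γ) : Set Γ),
      s * t * s⁻¹ * t⁻¹ ∈ Subgroup.zpowers w := by
    have one : ∀ v : Γ, v = 1 → v ∈ Subgroup.zpowers w := fun v hv => hv ▸ Subgroup.one_mem _
    rintro s ((rfl | rfl) | hs') t ((rfl | rfl) | ht')
    · exact one _ (by group)
    · have e : s * t * s⁻¹ * t⁻¹ = w⁻¹ := by rw [hw]; group
      rw [e]; exact Subgroup.inv_mem _ (Subgroup.mem_zpowers w)
    · have ct := cen t (MonoidHom.mem_ker.1 ht')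
      exact one _ (by rw [ct s, mul_inv_cancel_right, mul_inv_cancel])
    · rw [← hw]; exact Subgroup.mem_zpowers w
    · exact one _ (by group)
    · have ct := cen t (MonoidHom.mem_ker.1 ht')
      exact one _ (by rw [ct s, mul_inv_cancel_right, mul_inv_cancel])
    · have cs := cen s (MonoidHom.mem_ker.1 hs')
      exact one _ (by rw [← cs t, mul_inv_cancel_right, mul_inv_cancel])
    · have cs := cen s (MonoidHom.mem_ker.1 hs')
      exact one _ (by rw [← cs t, mul_inv_cancel_right, mul_inv_cancel])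
    · have cs := cen s (MonoidHom.mem_ker.1 hs')
      exact one _ (by rw [← cs t, mul_inv_cancel_right, mul_inv_cancel])
  have hP : Subgroup.zpowers y ⊔ Subgroup.zpowers x ≤
      (Subgroup.closure ({X, Y} ∪ (σ.ker : Set Γ) : Set Γ)).map σ := by
    apply sup_le
    · rw [Subgroup.zpowers_le]
      exact ⟨Y, Subgroup.subset_closure (by simp), hY⟩
    · rw [Subgroup.zpowers_le]
      exact ⟨X, Subgroup.subset_closure (by simp), hX⟩
  have hH : ∀ g : Γ, σ g ∈ Subgroup.zpowers y ⊔ Subgroup.zpowers x →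
      g ∈ Subgroup.closure ({X, Y} ∪ (σ.ker : Set Γ) : Set Γ) := by
    intro g hg
    obtain ⟨g', hg', e⟩ := hP hg
    have hk' : g'⁻¹ * g ∈ σ.ker := by
      rw [MonoidHom.mem_ker, map_mul, map_inv, e, inv_mul_cancel]
    have e2 : g = g' * (g'⁻¹ * g) := by group
    rw [e2]
    exact Subgroup.mul_mem _ hg' (Subgroup.subset_closure (Or.inr hk'))
  have w4 : w ^ (4 : ℤ) = 1 := by
    have : w ^ (4 : ℕ) = 1 := by
      rw [← f1]; simp [pow_succ, mul_assoc]
    exact_mod_cast this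
  refine ⟨w * w, by rw [← f1], ?_⟩
  intro z hz
  have hz' := pow_index_mem σ hs (Subgroup.zpowers y ⊔ Subgroup.zpowers x) (Subgroup.zpowers w)
    (fun g h hg hh => commutator_mem_of_gens _ _ hN hC (hH g hg) (hH h hh)) (hc hz) (hd hz)
  obtain ⟨i, hi⟩ := Subgroup.mem_zpowers_iff.1 hz'
  have h1 : σ (w ^ i) = 1 := by
    rw [hi, map_pow, MonoidHom.mem_ker.1 hz, one_pow]
  have sw' : σ w = x ^ (-2 : ℤ) := by
    rw [sw]; group
  rw [map_zpow, sw', ← zpow_mul] at h1
  have : Fact (Nat.Prime 2) := ⟨Nat.prime_two⟩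
  have ho : orderOf x = 2 ^ (1 + 1) :=
    orderOf_eq_prime_pow (by norm_num; exact hx2) (by norm_num; exact hx4)
  have h2 : ((orderOf x : ℕ) : ℤ) ∣ (-2 : ℤ) * i := orderOf_dvd_iff_zpow_eq_one.2 h1
  rw [ho] at h2
  have h3 : (2 : ℤ) ∣ i := by
    obtain ⟨j, hj⟩ := h2
    exact ⟨-j, by push_cast at hj; omega⟩
  obtain ⟨j, rfl⟩ := h3
  rcases Int.even_or_odd j with ⟨m, hm⟩ | ⟨m, hm⟩
  · left
    rw [← hi, hm]
    have e : (2 : ℤ) * (m + m) = 4 * m := by ring
    rw [e, zpow_mul, w4, one_zpow]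
  · right
    rw [← hi, hm]
    have e : (2 : ℤ) * (2 * m + 1) = 4 * m + 2 := by ring
    rw [e, zpow_add, zpow_mul, w4, one_zpow, one_mul]
    have e2 : w ^ (2 : ℤ) = w * w := by
      have : w ^ (2 : ℕ) = w * w := pow_two w
      exact_mod_cast this
    exact e2

/-- the index of a dihedral subgroup of order 8 in a group of order `8 m`, `m` odd, is odd -/
theorem d8_index [Finite G] (m : ℕ) (hm : ¬ 2 ∣ m) (hcard : Nat.card G = 8 * m) (x y : G)
    (hx4 : x ^ 4 = 1) (hx2 : x ^ 2 ≠ 1) (hy : y ^ 2 = 1) (hxy : y * x * y⁻¹ = x⁻¹) :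
    ¬ 2 ∣ (Subgroup.zpowers y ⊔ Subgroup.zpowers x).index := by
  have : Fact (Nat.Prime 2) := ⟨Nat.prime_two⟩
  have hpy : IsPGroup 2 (Subgroup.zpowers y) := by
    rintro ⟨g, hg⟩
    obtain ⟨i, rfl⟩ := Subgroup.mem_zpowers_iff.1 hg
    refine ⟨1, Subtype.ext ?_⟩
    show (y ^ i) ^ 2 ^ 1 = 1
    rw [pow_one, ← zpow_natCast, ← zpow_mul, mul_comm, zpow_mul, zpow_natCast, hy, one_zpow]
  have hpx : IsPGroup 2 (Subgroup.zpowers x) := by
    rintro ⟨g, hg⟩
    obtain ⟨i, rfl⟩ := Subgroup.mem_zpowers_iff.1 hg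
    refine ⟨2, Subtype.ext ?_⟩
    show (x ^ i) ^ 2 ^ 2 = 1
    rw [← zpow_natCast, ← zpow_mul, mul_comm, zpow_mul, zpow_natCast]
    norm_num
    rw [hx4, one_zpow]
  have hyi : y⁻¹ = y := inv_eq_of_mul_eq_one_left (by rw [← pow_two, hy])
  have hnorm : Subgroup.zpowers y ≤
      Subgroup.normalizer ((Subgroup.zpowers x : Subgroup G) : Set G) := by
    rw [Subgroup.zpowers_le]
    apply mem_normalizer_zpowers
    · rw [hxy]; exact Subgroup.inv_mem _ (Subgroup.mem_zpowers x)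
    · have e : y⁻¹ * x * y = y * x * y⁻¹ := by rw [hyi]
      rw [e, hxy]; exact Subgroup.inv_mem _ (Subgroup.mem_zpowers x)
  have hP : IsPGroup 2 ↥(Subgroup.zpowers y ⊔ Subgroup.zpowers x) :=
    IsPGroup.to_sup_of_normal_right' hpy hpx hnorm
  obtain ⟨k, hk⟩ := IsPGroup.iff_card.1 hP
  have hox : Nat.card (Subgroup.zpowers x) = 4 := by
    have ho : orderOf x = 2 ^ (1 + 1) :=
      orderOf_eq_prime_pow (by norm_num; exact hx2) (by norm_num; exact hx4)
    rw [Nat.card_zpowers, ho]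
    norm_num
  have hyx : y ∉ Subgroup.zpowers x := by
    intro hmem
    obtain ⟨i, rfl⟩ := Subgroup.mem_zpowers_iff.1 hmem
    have e : x ^ i * x * (x ^ i)⁻¹ = x := by group
    rw [e] at hxy
    apply hx2
    have e2 : x * x = x * x⁻¹ := by rw [← hxy]
    rw [pow_two, e2, mul_inv_cancel]
  have h4 : 4 < 2 ^ k := by
    by_contra hcon
    have hle : Nat.card ↥(Subgroup.zpowers y ⊔ Subgroup.zpowers x) ≤
        Nat.card (Subgroup.zpowers x) := by rw [hk, hox]; omega
    have := Subgroup.eq_of_le_of_card_ge (le_sup_right : Subgroup.zpowers x ≤ _) hle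
    apply hyx
    rw [this]
    exact (le_sup_left : Subgroup.zpowers y ≤ _) (Subgroup.mem_zpowers y)
  have hk3 : 3 ≤ k := by
    by_contra hcon
    have : k ≤ 2 := by omega
    have := Nat.pow_le_pow_right (show 0 < 2 by norm_num) this
    omega
  have h8 : 8 ∣ Nat.card ↥(Subgroup.zpowers y ⊔ Subgroup.zpowers x) := by
    rw [hk]
    exact pow_dvd_pow 2 hk3
  obtain ⟨n, hn⟩ := h8
  have hi := Subgroup.card_mul_index (Subgroup.zpowers y ⊔ Subgroup.zpowers x)
  rw [hcard, hn, mul_assoc] at hi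
  have hi' : n * (Subgroup.zpowers y ⊔ Subgroup.zpowers x).index = m := by omega
  intro h2
  exact hm (hi' ▸ Dvd.dvd.mul_left h2 n)

/-- the kernel of a finite stem extension has order at most 2 when its elements are killed by 8
and their powers by some odd number take at most two values -/
theorem card_ker_le_two (σ : Γ →* G) (hσ : Cfsg.IsStemExtension σ) (n : ℕ)
    (hn : ¬ 2 ∣ n) (h8 : ∀ z ∈ σ.ker, z ^ 8 = 1) (c : Γ)
    (hc : ∀ z ∈ σ.ker, z ^ n = 1 ∨ z ^ n = c) : Nat.card σ.ker ≤ 2 := by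
  classical
  let f : σ.ker → Bool := fun z => decide ((z : Γ) ^ n = 1)
  have hf : Function.Injective f := by
    intro z z' h
    have hzz : (z : Γ) ^ n = (z' : Γ) ^ n := by
      rcases hc z z.2 with h1 | h1 <;> rcases hc z' z'.2 with h2 | h2
      · rw [h1, h2]
      · have ht : f z = true := by simp [f, h1]
        have ht' : f z' = true := h ▸ ht
        have h3 : (z' : Γ) ^ n = 1 := by simpa [f] using ht'
        rw [h1, h3]
      · have ht : f z' = true := by simp [f, h2]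
        have ht' : f z = true := h.symm ▸ ht
        have h3 : (z : Γ) ^ n = 1 := by simpa [f] using ht'
        rw [h2, h3]
      · rw [h1, h2]
    have hcomm : Commute (z : Γ) ((z' : Γ)⁻¹) :=
      (Subgroup.mem_center_iff.1 (hσ.2.1 z.2) _).symm
    have hu : ((z : Γ) * (z' : Γ)⁻¹) ^ n = 1 := by
      rw [hcomm.mul_pow, inv_pow, hzz, mul_inv_cancel]
    have hu8 : ((z : Γ) * (z' : Γ)⁻¹) ^ 8 = 1 :=
      h8 _ (Subgroup.mul_mem _ z.2 (Subgroup.inv_mem _ z'.2))
    have hg := pow_gcd_eq_one.2 ⟨hu, hu8⟩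
    have hcop : Nat.gcd n 8 = 1 := by
      have h2 : Nat.Coprime n 2 :=
        Nat.coprime_comm.1 ((Nat.Prime.coprime_iff_not_dvd Nat.prime_two).2 hn)
      exact Nat.Coprime.pow_right 3 h2
    rw [hcop, pow_one] at hg
    apply Subtype.ext
    exact mul_inv_eq_one.1 hg
  have h := Nat.card_le_card_of_injective f hf
  simpa using h

/-- prime order cyclic subgroup: the index kills the kernel -/
theorem zpowers_pow_index [Finite Γ] (σ : Γ →* G) (hσ : Cfsg.IsStemExtension σ) (c : G) {z : Γ}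
    (hz : z ∈ σ.ker) : z ^ (Subgroup.zpowers c).index = 1 :=
  pow_index_eq_one σ hσ.1 _ (fun _ _ hg hh => comm_of_zpowers σ hσ.1 hσ.2.1 c hg hh)
    (hσ.2.1 hz) (hσ.2.2 hz)

/-- the index of a subgroup of prime order -/
theorem zpowers_index_eq [Finite G] {n p m : ℕ} (hcard : Nat.card G = n) (hp : p.Prime)
    (hn : p * m = n) (c : G) (hc : c ^ p = 1) (hc1 : c ≠ 1) :
    (Subgroup.zpowers c).index = m := by
  have : Fact p.Prime := ⟨hp⟩
  have hi := Subgroup.card_mul_index (Subgroup.zpowers c)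
  rw [Nat.card_zpowers, orderOf_eq_prime hc hc1, hcard, ← hn] at hi
  exact Nat.eq_of_mul_eq_mul_left hp.pos hi

end Schur3

/-- Schur multiplier of order 2 from a stem extension with kernel of order 2 and the bound 2 for
the kernels of all finite stem extensions -/
theorem hasCyclicSchurMultiplier_two {G : Type u} [Group G]
    (hex : ∃ (Γ : Type u) (_ : Group Γ) (_ : Finite Γ) (σ : Γ →* G),
      Cfsg.IsStemExtension σ ∧ Nat.card σ.ker = 2)
    (hle : ∀ (Γ : Type u) [Group Γ] [Finite Γ] (σ : Γ →* G), Cfsg.IsStemExtension σ →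
      Nat.card σ.ker ≤ 2) : Cfsg.HasCyclicSchurMultiplier G 2 := by
  have : Fact (Nat.Prime 2) := ⟨Nat.prime_two⟩
  have hZ : Nat.card (Multiplicative (ZMod 2)) = 2 := by
    rw [Nat.card_eq_fintype_card, Fintype.card_multiplicative, ZMod.card]
  constructor
  · obtain ⟨Γ, i1, i2, σ, hσ, hcard⟩ := hex
    exact ⟨Γ, i1, i2, σ, hσ, ⟨mulEquivOfPrimeCardEq (p := 2) hcard hZ⟩⟩
  · intro Γ _ _ σ hσ
    have h := hle Γ σ hσ
    have hpos : 0 < Nat.card σ.ker := Nat.card_pos
    rcases Nat.lt_or_ge (Nat.card σ.ker) 2 with h1 | h2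
    · have h1' : Nat.card σ.ker = 1 := by omega
      have hsub : Subsingleton σ.ker := (Nat.card_eq_one_iff_unique.1 h1').1
      exact ⟨1, fun z => ⟨1, Subsingleton.elim _ _⟩⟩
    · have hc2 : Nat.card σ.ker = 2 := le_antisymm h h2
      exact ⟨(mulEquivOfPrimeCardEq (p := 2) hZ hc2).toMonoidHom,
        (mulEquivOfPrimeCardEq (p := 2) hZ hc2).surjective⟩

end Cfsg.Agent.Helper17.J1
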